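import Cfsg.Agent.Blocks.OneLess.Column
import Cfsg.Agent.S4733

/-!
# Small principal blocks: the Sylow subgroup is nontrivial and the rank is small
-/

set_option autoImplicit false
set_option linter.style.haveILetI false
open Cfsg CfsgLib CfsgLib.Blocks

namespace CfsgLib.Blocks.OneLess

variable {G : Type*} [Group G] [Finite G] {p : ℕ} [Fact p.Prime] {M : Ideal AlgInt}

/-- A principal block with several characters has a nontrivial Sylow subgroup and fewer modular
than ordinary characters. -/
theorem rank_bounds (hM : IsPModular p M) (hk : 1 < Nat.card (principalBlock M G)) (P : Sylow p G) :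
    (P : Subgroup G) ≠ ⊥ ∧ 1 ≤ blockRank p (principalBlock M G) ∧
      blockRank p (principalBlock M G) < Nat.card (principalBlock M G) := by
  haveI := Fintype.ofFinite G
  have := isMaximal_of_isPModular hM
  haveI : CharP (kres M) p := charP_kres hM
  have hB : IsPBlock M (principalBlock M G) := isPBlock_principalBlock
  obtain ⟨h1, h2, h3⟩ := Cfsg.Agent.S4733.result p M hM _ hB
  have hd : blockDefect p (principalBlock M G) ≠ 0 := fun h => by
    have := (h2.1 h).1; omega
  refine ⟨fun h => ?_, CyclicInertia.blockRank_pos hM hB, lt_of_le_of_ne h1 fun h => hd (h3.2 h.symm)⟩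
  have hc := Contrib.natCard_defectGroup hM hB ((isDefectGroup_principalBlock_iff _).2 ⟨P, rfl⟩)
  rw [h, Subgroup.card_bot] at hc
  exact (Nat.one_lt_pow hd (Fact.out : p.Prime).one_lt).ne hc

end CfsgLib.Blocks.OneLess
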